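/- S3235, disconnected case, `p = 5`: two lemmas on lines of type `SL₂`. -/
import Mathlib
import Cfsg.Agent.CHEV.Cq.Od

set_option autoImplicit false

namespace CL.Cq.A5e

open Subgroup CL.PT CL.PT.L2x

variable {G Ω : Type*} [Group G] [MulAction G Ω] [Finite G] [Finite Ω] {S : Ω → Set G} {D : Ω → Ω → ℤ → G}
  {a b c d : Ω} {x y : G}

omit [Finite G] in
/-- the reflection that exchanges two involutions with product of odd order -/
theorem mid {i i' s : G} (ii : i * i = 1) (ii' : i' * i' = 1) (e : s * i * s⁻¹ = i') (e' : s * i' * s⁻¹ = i)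
    (od : Odd (orderOf (i * i'))) : ∃ m : ℕ, Commute s ((i * i') ^ m * i' * ((i * i') ^ m)⁻¹) ∧
      ((i * i') ^ m * i' * ((i * i') ^ m)⁻¹) * i * ((i * i') ^ m * i' * ((i * i') ^ m)⁻¹)⁻¹ = i' := by
  obtain ⟨k, hk⟩ := od
  set r := i * i' with hr
  have ro : r ^ (2 * k + 1) = 1 := by rw [← hk, pow_orderOf_eq_one]
  have i1 : i⁻¹ = i := inv_eq_of_mul_eq_one_right ii
  have i2 : i'⁻¹ = i' := inv_eq_of_mul_eq_one_right ii'
  have ri : r⁻¹ = i' * i := by rw [hr, mul_inv_rev, i1, i2]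
  have c1 : i' * r * i'⁻¹ = r⁻¹ := by
    rw [ri, hr, i2]
    calc i' * (i * i') * i' = i' * i * (i' * i') := by group
      _ = i' * i := by rw [ii', mul_one]
  have c2 : ∀ n : ℕ, i' * (r ^ n)⁻¹ = r ^ n * i' := fun n => by
    have : i' * r ^ n * i'⁻¹ = (r ^ n)⁻¹ := by rw [← conj_pow, c1, inv_pow]
    rw [← this, i2]
    calc i' * (i' * r ^ n * i') = (i' * i') * r ^ n * i' := by group
      _ = r ^ n * i' := by rw [ii', one_mul]
  have c3 : s * r * s⁻¹ = r⁻¹ := by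
    rw [ri, hr]
    calc s * (i * i') * s⁻¹ = (s * i * s⁻¹) * (s * i' * s⁻¹) := by group
      _ = i' * i := by rw [e, e']
  have ir : i = r * i' := by rw [hr, mul_assoc, ii', mul_one]
  have j1 : r ^ ((k + 1) * (k + 1)) * i' * (r ^ ((k + 1) * (k + 1)))⁻¹ = r ^ (k + 1) * i' := by
    rw [mul_assoc, c2, ← mul_assoc, ← pow_add]
    have : (k + 1) * (k + 1) + (k + 1) * (k + 1) = (2 * k + 1) * (k + 1) + (k + 1) := by ring
    rw [this, pow_add, pow_mul, ro, one_pow, one_mul]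
  have j2 : (r ^ k)⁻¹ = r ^ (k + 1) := by
    rw [inv_eq_iff_mul_eq_one, ← pow_add, ← ro]
    congr 1
    ring
  refine ⟨(k + 1) * (k + 1), ?_, ?_⟩
  · rw [j1]
    have : s * (r ^ (k + 1) * i') * s⁻¹ = r ^ (k + 1) * i' := by
      calc s * (r ^ (k + 1) * i') * s⁻¹ = (s * r ^ (k + 1) * s⁻¹) * (s * i' * s⁻¹) := by group
        _ = (r ^ (k + 1))⁻¹ * (r * i') := by rw [← conj_pow, c3, e', inv_pow, ← ir]
        _ = (r ^ k)⁻¹ * i' := by rw [pow_succ']; group
        _ = r ^ (k + 1) * i' := by rw [j2]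
    exact mul_inv_eq_iff_eq_mul.1 this
  · rw [j1]
    calc r ^ (k + 1) * i' * i * (r ^ (k + 1) * i')⁻¹ = r ^ (k + 1) * r⁻¹ * (i'⁻¹ * (r ^ (k + 1))⁻¹) := by
          rw [ri, mul_inv_rev]; group
      _ = r ^ (k + 1) * r⁻¹ * (r ^ (k + 1) * i') := by rw [i2, c2]
      _ = r ^ (2 * k + 1) * i' := by group
      _ = i' := by rw [ro, one_mul]

omit [Finite G] [Finite Ω] in
theorem comm_fx {s g : G} (cm : Commute s g) (e : Ω) : e ∈ Fx Ω s ↔ g • e ∈ Fx Ω s := by
  change s • e = e ↔ s • g • e = g • e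
  rw [← mul_smul, cm.eq, mul_smul, smul_left_cancel_iff]

variable (h : Hz 5 S D) (o : Od S)
include h

theorem big_card (n : a ≠ b) {v : G} (v1 : v ≠ 1) (hv : v ∈ W S a b) (big : Fx Ω v ≠ Ln S a b) :
    (Fx Ω v).ncard = Nat.card (E S a) ^ 3 + 1 := by
  obtain ⟨-, e | ⟨e, -⟩⟩ := h.cenW (R := {v}) ⟨v, rfl, v1⟩ n (fun w hw => hw ▸ hv)
  · exact (big (by rw [← e, Hz.Fs_one])).elim
  · rwa [Hz.Fs_one] at e

include o

theorem d_line (n : a ≠ b) (z1 : D a b (-1) ≠ 1) {v : G} (iv : Iv v) (hv : v ∈ W S a b) (big : Fx Ω v ≠ Ln S a b)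
    (sm : Fx Ω (v * D a b (-1)) = Ln S a b) : False := by
  have hU := big_card h n iv.2 hv big
  have q5 := h.od_card o a
  have va : v • a = a := h.C_fix hv.1
  have vb : v • b = b := hv.2
  have s2 : ∀ c c', v • c = c → v • c' = c' → c ≠ c' → D c c' (-1) ≠ 1 := fun c c' hc hc' ne z => by
    have vc : v ∈ C S c := h.Sc_one.1 (h.sc_pm (Or.inl rfl) (h.Sc_one.2 hv.1) hc)
    have e := h.fixW ne z (w := v) ⟨vc, hc'⟩ iv.2
    rw [e, h.Ln_card ne, (h.E_card c a).1] at hU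
    have : 1 < Nat.card (E S a) := by omega
    have := Nat.pow_lt_pow_right this (show 1 < 3 by norm_num)
    rw [pow_one] at this
    omega
  have vz : Commute v (D a b (-1)) := h.D_comm n _ va vb
  have zz := h.z_sq n
  have zW := h.z_mem n
  have s3 : ∀ c, a ≠ c → D a c (-1) ≠ 1 → v • c = c := fun c n' i1 => by
    set z := D a b (-1) with hz
    set s := v * z with hs
    have sC : s ∈ C S a := (C S a).mul_mem hv.1 zW.1
    have sa : s • a = a := h.C_fix sC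
    have ss : s * s = 1 := by
      rw [hs]
      calc v * z * (v * z) = v * (z * v) * z := by group
        _ = (v * v) * (z * z) := by rw [← vz.eq]; group
        _ = 1 := by rw [iv.1, zz, mul_one]
    have n2 : a ≠ s • c := fun e => n' (by rw [← smul_left_cancel_iff s, sa]; exact e)
    have e1 : s * D a c (-1) * s⁻¹ = D a (s • c) (-1) := by rw [← h.Deqv s _ n', sa]
    have e2 : s * D a (s • c) (-1) * s⁻¹ = D a c (-1) := by rw [← h.Deqv s _ n2, sa, ← mul_smul, ss, one_smul]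
    have i2 : D a (s • c) (-1) ≠ 1 := fun e => i1 (by rw [← e2, e]; group)
    obtain ⟨m, c1, c2⟩ := mid (h.z_sq n') (h.z_sq n2) e1 e2 (h.z_odd n' n2 i1 i2)
    set r := (D a c (-1) * D a (s • c) (-1)) ^ m with hr
    have ra : r • a = a := h.C_fix ((C S a).pow_mem ((C S a).mul_mem (h.z_mem n').1 (h.z_mem n2).1) m)
    have n3 : a ≠ r • s • c := fun e => n2 (by rw [← smul_left_cancel_iff r, ra]; exact e)
    have e3 : r * D a (s • c) (-1) * r⁻¹ = D a (r • s • c) (-1) := by rw [← h.Deqv r _ n2, ra]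
    rw [e3] at c1 c2
    have i3 : D a (r • s • c) (-1) ≠ 1 := fun e => i2 (by
      have : D a (s • c) (-1) = r⁻¹ * D a (r • s • c) (-1) * r := by rw [← e3]; group
      rw [this, e]; group)
    have jS : D a (r • s • c) (-1) ∈ Sb G (Ln S a b) := fun e => by rw [← sm]; exact comm_fx c1 e
    have e4 : z = D a (r • s • c) (-1) := h.z_comm n n3 z1 i3 (h.Sb_norm o n jS).2.2.symm
    rw [← e4, ← e1, hs, vz.eq] at c2
    have vi : Commute (D a c (-1)) v := by
      have : v * D a c (-1) * v⁻¹ = D a c (-1) := by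
        calc v * D a c (-1) * v⁻¹ = z⁻¹ * (z * v * D a c (-1) * (z * v)⁻¹) * z := by group
          _ = D a c (-1) := by rw [← c2]; group
      exact (mul_inv_eq_iff_eq_mul.1 this).symm
    have vl : v • c ∈ Ln S a c := by
      rw [← (h.fixz n' i1).2]
      exact (comm_fx vi c).1 (h.Db _ n')
    exact (Clx.inv_W h n' ((Clx.EW_iff h n' hv.1).2 vl) iv.1).2
  let r : Ω → Ω → Prop := fun c c' => c ≠ c' → D c c' (-1) ≠ 1
  have rg : ∀ (g : G) {u w}, r u w → r (g • u) (g • w) := fun g u w e ne z => by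
    have ne' : u ≠ w := fun e => ne (by rw [e])
    rw [h.Deqv g _ ne'] at z
    exact e ne' (by
      calc D u w (-1) = g⁻¹ * (g * D u w (-1) * g⁻¹) * g := by group
        _ = 1 := by rw [z]; group)
  have rg' : ∀ (g : G) {u w}, r (g⁻¹ • u) (g⁻¹ • w) → r u w := fun g u w e => by
    simpa using rg g e
  have rs : ∀ {u w}, r u w → r w u := fun {u w} e ne z => e ne.symm (by rw [h.Dsym _ ne, z, inv_one])
  have ra : ∀ c, r a c ↔ v • c = c := fun c => by
    refine ⟨fun e => ?_, fun e => s2 a c va e⟩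
    by_cases ac : a = c
    · exact ac ▸ va
    · exact s3 c ac (e ac)
  have rt : ∀ {u w t}, r u w → r w t → r u t := fun {u w t} e1 e2 => by
    obtain ⟨g, rfl⟩ := h.trans a w
    have f1 := rg g⁻¹ (rs e1)
    have f2 := rg g⁻¹ e2
    rw [inv_smul_smul] at f1 f2
    exact rg' g (s2 _ _ ((ra _).1 f1) ((ra _).1 f2))
  have al := h.blk o r ⟨fun u ne => (ne rfl).elim, rs, rt⟩ rg (fun u => by
    obtain ⟨g, rfl⟩ := h.trans a u
    have : {w | r (g • a) w} = (fun c => g • c) '' Fx Ω v := by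
      ext w
      constructor
      · intro e
        have f := rg g⁻¹ e
        rw [inv_smul_smul] at f
        exact ⟨g⁻¹ • w, (ra _).1 f, smul_inv_smul g w⟩
      · rintro ⟨t, ht, rfl⟩
        exact rg g ((ra t).2 ht)
    rw [this, Set.ncard_image_of_injective _ (MulAction.injective g), hU]
    exact ((h.E_card a a).2.1.pow).add_one) (s := D a b (-1)) ⟨zz, z1⟩ ⟨a, h.Sc_one.2 zW.1⟩
  exact iv.2 (h.faith v fun c => (ra c).1 (al a c))

theorem d_one {R : Subgroup G} (f : Fr S D c d x y R) (z1 : D c d (-1) ≠ 1) (n : a ≠ b) (z2 : D a b (-1) ≠ 1)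
    (zR : D a b (-1) ∈ R) (ne : D a b (-1) ≠ D c d (-1)) {v : G} (iv : Iv v) (hv : v ∈ W S c d) (hv' : v ∈ W S a b) : False := by
  have n' := f.ne
  have la : a ∈ Ln S a b := Set.mem_insert _ _
  have lb : b ∈ Ln S a b := Set.mem_insert_of_mem _ ⟨1, one_mem _, one_smul _ _⟩
  have lc : c ∈ Ln S c d := Set.mem_insert _ _
  have ld : d ∈ Ln S c d := Set.mem_insert_of_mem _ ⟨1, one_mem _, one_smul _ _⟩
  have fz := (h.fixz n' z1).2
  have fz' := (h.fixz n z2).2
  have zz := h.z_sq n'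
  have zz' := h.z_sq n
  have ln : Ln S a b ≠ Ln S c d := fun e => ne (h.od_line o n' (e ▸ la) (e ▸ lb) n).2.2.1
  have fp : ∀ e ∈ Ln S c d, D a b (-1) • e ≠ e :=
    h.fpf_of o n' n ln ⟨1, by rw [pow_one, sq, zz']⟩ (f.le zR) fz'.le
  have cz : Commute (D a b (-1)) (D c d (-1)) := (h.Sb_norm o n' (f.le zR)).2.2
  have vz : Commute v (D c d (-1)) := h.D_comm n' _ (h.C_fix hv.1) hv.2
  have vz' : Commute v (D a b (-1)) := h.D_comm n _ (h.C_fix hv'.1) hv'.2
  have vl' : ∀ e ∈ Ln S a b, v • e = e := (h.K_le o n).2.2 v hv'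
  obtain ⟨zc, zd, -, -, zm⟩ := h.fr_outer o f zR fp
  obtain ⟨-, t2, -, tf⟩ := h.τ_sc n'
  obtain ⟨mc, md, -⟩ := h.toSys.bd f.hx f.hy f.bd
  have m2 := h.mu_sq n' f.hx f.hy f.bd
  have mt := h.D_swap n' 2 mc md
  have tc := h.Da 2 n'
  have td := h.Db 2 n'
  have zW := h.z_mem n'
  have q5 := h.od_card o c
  have lq := h.Ln_card n'
  set z := D c d (-1) with hz
  set z' := D a b (-1) with hz'
  set τ := D c d 2 with hτ
  set m := x * y * x with hm
  set s := v * z with hs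
  have dis : ∀ e, z' • e = e → z • e ≠ e := fun e e1 e2 => fp e (fz ▸ e2) e1
  have nf : ∀ e, s • e = e → z' • e ≠ e := fun e e1 e2 => dis e e2 (by
    have ve : v • e = e := vl' e (fz' ▸ e2)
    rw [hs, vz.eq, mul_smul, ve] at e1
    exact e1)
  have za : z' • a = a := h.Da _ n
  have s1 : s ≠ 1 := fun e => nf a (by rw [e, one_smul]) za
  have sW : s ∈ W S c d := (W S c d).mul_mem hv zW
  have big : Fx Ω s ≠ Ln S c d := fun e => d_line h o n' z1 iv hv (fun e' => fp a (e' ▸ vl' a la) za) e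
  have hU := big_card h n' s1 sW big
  have lU : Ln S c d ⊆ Fx Ω s := fun e he => (h.K_le o n').2.2 s sW e he
  obtain ⟨ε, hε⟩ := sg (centralizer {s}) (Fx Ω s) (fun g hg e he =>
    (comm_fx (show Commute s g from hg s rfl) e).1 he)
  have xX : x ∈ centralizer ({s} : Set G) := fun w hw => by
    rw [hw]; exact (sW.1 x (subset_closure f.hx)).symm
  have yX : y ∈ centralizer ({s} : Set G) := fun w hw => by
    rw [hw]; exact ((h.W_symm n' ▸ sW).1 y (subset_closure f.hy)).symm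
  have zX : z' ∈ centralizer ({s} : Set G) := fun w hw => by
    rw [hw]; exact (Commute.mul_left vz' cz.symm).eq
  have e5 : ∀ g : centralizer ({s} : Set G), (g : G) ^ 5 = 1 → ε g = 1 := fun g e => by
    have : ε g ^ 5 = 1 := by rw [← map_pow, show g ^ 5 = 1 from Subtype.ext e, map_one]
    rcases Int.units_eq_one_or (ε g) with k | k
    · exact k
    · rw [k] at this; exact absurd this (by decide)
  have mX : m ∈ centralizer ({s} : Set G) := mul_mem (mul_mem xX yX) xX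
  have em : ε ⟨m, mX⟩ = 1 := by
    have : (⟨m, mX⟩ : centralizer ({s} : Set G)) = ⟨x, xX⟩ * ⟨y, yX⟩ * ⟨x, xX⟩ := rfl
    rw [this, map_mul, map_mul, e5 _ (h.pow f.hx), e5 _ (h.pow f.hy), mul_one, mul_one]
  have F1 : Fx Ω s ∩ Fx Ω (1 : G) = Fx Ω s := Set.inter_eq_left.2 fun e _ => one_smul _ _
  obtain ⟨k, hk⟩ : ∃ k, Nat.card (E S c) = 8 * k + 5 := ⟨Nat.card (E S c) / 8, by omega⟩
  have q3 : Nat.card (E S c) ^ 3 = 8 * k + 5 + 8 * (2 * (32 * k ^ 3 + 60 * k ^ 2 + 37 * k + 7) + 1) := by rw [hk]; ring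
  have ez : ε ⟨z', zX⟩ = -1 := by
    have p2 : z' ^ 2 = 1 := by rw [sq, zz']
    have p4 : z' ^ 4 = 1 := by rw [show 4 = 2 * 2 from rfl, pow_mul, p2, one_pow]
    have p8 : z' ^ 8 = 1 := by rw [show 8 = 2 * 4 from rfl, pow_mul, p2, one_pow]
    obtain ⟨u, v', w, a1, a2, a3, a4⟩ := hε ⟨z', zX⟩ (fun e _ => by simp only [p8, one_smul])
    have F0 : Fx Ω s ∩ Fx Ω z' = ∅ := Set.eq_empty_of_forall_notMem fun e he => nf e he.1 he.2
    simp only [p2, p4, F1, F0, Set.ncard_empty, hU, q3] at a1 a2 a3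
    rw [a4]
    exact Odd.neg_one_pow (Nat.odd_iff.2 (by omega))
  have zi : z'⁻¹ = z' := inv_eq_of_mul_eq_one_right zz'
  have t4 : τ * τ * (τ * τ) = 1 := by rw [t2, zz]
  have mt' : m⁻¹ * τ⁻¹ * m = τ := by rw [← mt]; group
  have g2 : (z' * m⁻¹) ^ 2 = τ ∨ (z' * m⁻¹) ^ 2 = τ⁻¹ := by
    have e0 : (z' * m⁻¹) ^ 2 = (z' * m * z'⁻¹)⁻¹ * m⁻¹ := by
      calc (z' * m⁻¹) ^ 2 = z' * m⁻¹ * z' * m⁻¹ := by rw [sq, ← mul_assoc]
        _ = z' * m⁻¹ * z'⁻¹ * m⁻¹ := by rw [zi]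
        _ = _ := by group
    rcases zm with e | e
    · right
      rw [e0, e]
      calc (τ * m)⁻¹ * m⁻¹ = (m⁻¹ * τ⁻¹ * m) * (m * m)⁻¹ := by group
        _ = τ⁻¹ := by rw [mt', m2, ← t2]; group
    · left
      rw [e0, e]
      calc (τ⁻¹ * m)⁻¹ * m⁻¹ = (m⁻¹ * τ⁻¹ * m)⁻¹ * (m * m)⁻¹ := by group
        _ = τ * (τ * τ * (τ * τ))⁻¹ := by rw [mt', m2, ← t2]; group
        _ = τ := by rw [t4]; group
  set g := z' * m⁻¹ with hg
  have gX : g ∈ centralizer ({s} : Set G) := mul_mem zX (inv_mem mX)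
  have g4 : g ^ 4 = z := by
    rw [show 4 = 2 * 2 from rfl, pow_mul]
    rcases g2 with e | e
    · rw [e, sq, t2]
    · rw [e, sq, ← mul_inv_rev, t2, inv_eq_of_mul_eq_one_right zz]
  have g8 : g ^ 8 = 1 := by rw [show 8 = 4 * 2 from rfl, pow_mul, g4, sq, zz]
  have gc : g • c = c := by rw [hg, mul_smul, show m⁻¹ • c = d by rw [inv_smul_eq_iff, md], zd]
  have gd : g • d = d := by rw [hg, mul_smul, show m⁻¹ • d = c by rw [inv_smul_eq_iff, mc], zc]
  have ft : ∀ e, (g ^ 2) • e = e → e = c ∨ e = d := fun e he => by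
    have te : τ • e = e := by
      rcases g2 with k | k
      · rwa [k] at he
      · rw [k, inv_smul_eq_iff] at he; exact he.symm
    refine tf e ?_ te
    rw [← fz]
    change z • e = e
    rw [← t2, mul_smul, te, te]
  have G2 : Fx Ω s ∩ Fx Ω (g ^ 2) = {c, d} := by
    refine Set.Subset.antisymm (fun e he => ft e he.2) ?_
    rintro e (rfl | rfl)
    · exact ⟨lU lc, by change (g ^ 2) • e = e; rw [sq, mul_smul, gc, gc]⟩
    · exact ⟨lU ld, by change (g ^ 2) • e = e; rw [sq, mul_smul, gd, gd]⟩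
  have G1 : Fx Ω s ∩ Fx Ω g = {c, d} := by
    refine Set.Subset.antisymm (fun e he => ft e ?_) ?_
    · have : g • e = e := he.2
      rw [sq, mul_smul, this, this]
    · rintro e (rfl | rfl)
      · exact ⟨lU lc, gc⟩
      · exact ⟨lU ld, gd⟩
  have G4 : Fx Ω s ∩ Fx Ω (g ^ 4) = Ln S c d := by rw [g4, fz]; exact Set.inter_eq_right.2 lU
  obtain ⟨u, v', w, a1, a2, a3, a4⟩ := hε ⟨g, gX⟩ (fun e _ => by simp only [g8, one_smul])
  simp only [G1, G2, G4, Set.ncard_pair n', hU, q3, lq] at a1 a2 a3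
  have eg : ε ⟨g, gX⟩ = -1 := by
    have : (⟨g, gX⟩ : centralizer ({s} : Set G)) = ⟨z', zX⟩ * (⟨m, mX⟩)⁻¹ := rfl
    rw [this, map_mul, map_inv, ez, em, inv_one, mul_one]
  rw [eg, Even.neg_one_pow (Nat.even_iff.2 (by omega))] at a4
  exact absurd a4 (by decide)

end CL.Cq.A5e
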