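/- S3235, disconnected case, `p = 5`: outer elements, blocks, and the use of the Z*-theorem. -/
import Mathlib
import Cfsg.Agent.CHEV.Cq.OdA
import Cfsg.Agent.S0215
import Cfsg.Agent.INV.BaerSuzuki

set_option autoImplicit false
set_option linter.unusedSectionVars false

namespace CL.Cq.Od3

open Subgroup CL.PT CL.PT.L2x

variable {G Ω : Type*} [Group G] [MulAction G Ω] [Finite G] [Finite Ω] {S : Ω → Set G} {D : Ω → Ω → ℤ → G}
  {a b c d : Ω} {x y : G}

theorem pg {g : G} (g2 : E2 g) : IsPGroup 2 (zpowers g) := by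
  obtain ⟨k, hk⟩ := g2
  rintro ⟨_, i, rfl⟩
  exact ⟨k, Subtype.ext (by rw [coe_pow, ← zpow_natCast, ← zpow_mul, mul_comm, zpow_mul, zpow_natCast, hk, one_zpow, coe_one])⟩

theorem e2_of_sq {s : G} (ss : s * s = 1) : E2 s := ⟨1, by rw [pow_one, sq, ss]⟩

/-- a second fixed point on an even set -/
theorem two {g : G} (g2 : E2 g) {Φ : Set Ω} (hg : g ∈ Sb G Φ) (ev : Even Φ.ncard) (ha : a ∈ Φ) (ga : g • a = a) :
    ∃ c ∈ Φ, c ≠ a ∧ g • c = c := by
  by_contra k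
  push Not at k
  have e := fix_mod Nat.prime_two (pg g2) Φ fun x hx c hc => (zpowers_le.2 hg hx c).1 hc
  have : {c ∈ Φ | ∀ x ∈ zpowers g, x • c = c} = {a} := Set.eq_singleton_iff_unique_mem.2
    ⟨⟨ha, fun x hx => zpowers_le.2 (MulAction.mem_stabilizer_iff.2 ga) hx⟩,
      fun c hc => by_contra fun n => k c hc.1 n (hc.2 g (mem_zpowers g))⟩
  rw [this, Set.ncard_singleton] at e
  exact Nat.not_even_iff.2 e ev

theorem syl2 {P : Subgroup G} {g m : G} (hg : g ∈ P) (hm : m ∈ P) (g2 : E2 g) (m2 : E2 m) :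
    ∃ u ∈ P, E2 (g * (u * m * u⁻¹)⁻¹) := by
  have k : ∀ {g : G} (hg : g ∈ P), E2 g → ∃ T : Sylow 2 P, (⟨g, hg⟩ : P) ∈ (T : Subgroup P) := fun {g} hg ⟨k, hk⟩ =>
    let ⟨T, hT⟩ := (pg (g := (⟨g, hg⟩ : P)) ⟨k, Subtype.ext hk⟩).exists_le_sylow
    ⟨T, hT (mem_zpowers _)⟩
  obtain ⟨T, hT⟩ := k hg g2
  obtain ⟨T', hT'⟩ := k hm m2
  obtain ⟨u, rfl⟩ := MulAction.exists_smul_eq P T' T
  obtain ⟨j, hj⟩ := (u • T').isPGroup' ⟨_, mul_mem hT (inv_mem (smul_mem_pointwise_smul _ (MulAut.conj u) _ hT'))⟩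
  exact ⟨u, u.2, j, congrArg (fun z => ((z : (u • T' : Sylow 2 P).toSubgroup) : P).1) hj⟩

variable (h : Hz 5 S D) (o : Od S)
include h o

theorem ev (n : a ≠ b) : Even (Ln S a b).ncard := h.Ln_card n ▸ (h.E_card a a).2.1.add_one

theorem fpf_of (n : a ≠ b) (n' : c ≠ d) (ne : Ln S c d ≠ Ln S a b) {g : G} (g2 : E2 g) (hg : g ∈ Sb G (Ln S a b))
    (fx : Fx Ω g ⊆ Ln S c d) : ∀ e ∈ Ln S a b, g • e ≠ e := fun e he ge => by
  obtain ⟨e', he', n2, ge'⟩ := two g2 hg (ev h o n) he ge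
  exact ne ((h.od_line o n' (fx ge') (fx ge) n2).1.symm.trans (h.od_line o n he' he n2).1)

theorem outer (n : a ≠ b) {g : G} (g2 : E2 g) (ga : g • a = b) (gb : g • b = a) (fp : ∀ e ∈ Ln S a b, g • e ≠ e) :
    ∃ k : G, E2 k ∧ Sc S a k 2 ∧ k • b = b := by
  have key : ∀ x ∈ S a, ∀ y ∈ S b, Bd x y → E2 (g * (x * y * x)⁻¹) → ∃ k : G, E2 k ∧ Sc S a k 2 ∧ k • b = b := by
    intro x hx y hy d e
    obtain ⟨m1, m2, -⟩ := h.toSys.bd hx hy d
    have ka : (g * (x * y * x)⁻¹) • a = a := by rw [mul_smul, inv_smul_eq_iff.2 m2.symm, gb]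
    have kb : (g * (x * y * x)⁻¹) • b = b := by rw [mul_smul, inv_smul_eq_iff.2 m1.symm, ga]
    rcases h.sc2 o n e ka kb with s | s | s | s
    · obtain ⟨c, hc, gc⟩ := h.inner_fix o n hx hy d (.inl rfl) s ga
      exact (fp c hc gc).elim
    · obtain ⟨c, hc, gc⟩ := h.inner_fix o n hx hy d (.inr rfl) s ga
      exact (fp c hc gc).elim
    · exact ⟨_, e, s, kb⟩
    · obtain ⟨k, hk⟩ : ∃ k, k = g * (x * y * x)⁻¹ := ⟨_, rfl⟩
      rw [← hk] at e s kb
      obtain ⟨j, hj⟩ := e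
      refine ⟨k * k * k, ⟨j, ?_⟩, h.Sc_mod (h.Sc_mul (h.Sc_mul s s) s) (by decide), by rw [mul_smul, mul_smul, kb, kb, kb]⟩
      rw [← pow_three', ← pow_mul, mul_comm, pow_mul, hj, one_pow]
  obtain ⟨x, hx⟩ := h.ex a
  obtain ⟨y₀, hy₀⟩ := h.ex b
  obtain ⟨y, hy, -, d, -⟩ := h.toSys.partner n hx hy₀
  obtain ⟨m1, m2, -⟩ := h.toSys.bd hx hy d
  have sb : ∀ {g : G}, g • a = b → g • b = a → g ∈ Sb G ({a, b} : Set Ω) := fun {g} ga gb c => by
    simp only [Set.mem_insert_iff, Set.mem_singleton_iff]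
    exact ⟨fun e => e.elim (fun e => .inr (e ▸ ga)) fun e => .inl (e ▸ gb), fun e => e.elim
      (fun e => .inr (smul_left_cancel g (e.trans gb.symm))) fun e => .inl (smul_left_cancel g (e.trans ga.symm))⟩
  obtain ⟨u, hu, e⟩ := syl2 (sb ga gb) (sb m1 m2) g2
    ⟨2, by rw [show 2 ^ 2 = 2 * 2 from rfl, pow_mul, sq (x * y * x), h.mu_sq n hx hy d, sq, h.z_sq n]⟩
  have e1 : u * (x * y * x) * u⁻¹ = (u * x * u⁻¹) * (u * y * u⁻¹) * (u * x * u⁻¹) := by group
  have d' := Tx.bd_conj u d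
  have hx' := h.conj u hx
  have hy' := h.conj u hy
  rw [e1] at e
  have nu : u • a ≠ u • b := fun e => n (smul_left_cancel u e)
  rcases (hu a).1 (.inl rfl) with ua | ua <;> rcases (hu b).1 (.inr rfl) with ub | ub
  · exact (nu (ua.trans ub.symm)).elim
  · exact key _ (ua ▸ hx') _ (Set.mem_singleton_iff.1 ub ▸ hy') d' e
  · exact key _ (ub ▸ hy') _ (Set.mem_singleton_iff.1 ua ▸ hx') d'.symm (d' ▸ e)
  · exact (nu (ua.trans ub.symm)).elim

theorem blk (r : Ω → Ω → Prop) (eq : Equivalence r) (iv : ∀ (g : G) {u v}, r u v → r (g • u) (g • v))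
    (ev' : ∀ u, Even {v | r u v}.ncard) {s : G} (is : Iv s) (t : Ty S s 1) : ∀ u v, r u v := by
  obtain ⟨c₀, t⟩ := t
  have rs : ∀ c, r c (s • c) := fun c => by
    by_cases n : c = s • c
    · exact n ▸ eq.refl c
    have ss : s • s • c = c := by rw [← mul_smul, is.1, one_smul]
    obtain ⟨k, k2, sc, kb⟩ := outer h o n (e2_of_sq is.1) rfl ss fun e he se => by
      obtain ⟨e', he', n2, se'⟩ := two (e2_of_sq is.1) (h.Sb_of_pair o n (.inr ⟨rfl, ss⟩)) (ev h o n) he se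
      have w : s ∈ W S e e' := ⟨h.Sc_one.1 (h.sc_pm (.inl rfl) t se), se'⟩
      rw [(h.od_line o n he he' n2.symm).2.1] at w
      exact n (h.C_fix w.1).symm
    have ka : k • c = c := h.Sc_fix (by decide) sc
    obtain ⟨v, hv, vc, kv⟩ := two k2 (Φ := {v | r c v}) (fun v => ⟨fun e => by simpa [ka] using iv k e, fun e => by
      simpa [inv_smul_eq_iff.2 ka.symm] using iv k⁻¹ e⟩) (ev' c) (eq.refl c) ka
    exact h.sc_fix (by decide) (by decide) sc vc (Ne.symm n) kv kb ▸ hv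
  let N : Subgroup G :=
    { carrier := {g | ∀ c, r c (g • c)}
      mul_mem' := fun {g g'} hg hg' c => by rw [mul_smul]; exact eq.trans (hg' c) (hg _)
      one_mem' := fun c => by rw [one_smul]; exact eq.refl c
      inv_mem' := fun {g} hg c => eq.symm (by simpa using hg (g⁻¹ • c)) }
  have nN : N.Normal := ⟨fun g hg u c => by simpa [mul_smul] using iv u (hg (u⁻¹ • c))⟩
  intro u v
  obtain ⟨g, rfl⟩ := h.toHy.trans u v
  rcases h.toHy.simple.eq_bot_or_eq_top_of_normal N nN with e | e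
  · exact (is.2 (mem_bot.1 (e.le rs))).elim
  · exact e.ge (mem_top g) u

theorem zstar {R : Subgroup G} (f : Fr S D c d x y R)
    (fo : ∀ {g : G}, g ∈ R → (∀ e ∈ Ln S c d, g • e ≠ e) →
      g • c = d ∧ g • d = c ∧ (Sc S c (g * (x * y * x)⁻¹) 2 ∨ Sc S c (g * (x * y * x)⁻¹) (-2)) ∧
      g * D c d 2 * g⁻¹ = (D c d 2)⁻¹ ∧
      (g * (x * y * x) * g⁻¹ = D c d 2 * (x * y * x) ∨ g * (x * y * x) * g⁻¹ = (D c d 2)⁻¹ * (x * y * x)))
    {u : G} (iu : Iv u) (uR : u ∈ R) (uZ : ∀ r ∈ R, Commute u r)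
    (fx : Fx Ω u = Ln S c d) : (∃ P : Sylow 2 G, (P : Subgroup G) = R) ∧ ∃ g : G, g * u * g⁻¹ ∈ R ∧ g * u * g⁻¹ ≠ u := by
  have nS : normalizer (R : Set G) ≤ Sb G (Ln S c d) := fun g hg => by
    have e : Ln S (g • c) (g • d) = Ln S c d := by_contra fun ne => by
      have m := (mem_normalizer_iff.1 hg u).1 uR
      have cm : g * u * g⁻¹ * (x * y * x) * (g * u * g⁻¹)⁻¹ = x * y * x := by
        have := (uZ _ ((mem_normalizer_iff.1 (inv_mem hg) _).1 f.m)).eq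
        rw [inv_inv] at this
        calc _ = g * (u * (g⁻¹ * (x * y * x) * g)) * u⁻¹ * g⁻¹ := by group
          _ = _ := by rw [this]; group
      have k := (fo m (fpf_of h o f.ne (fun e => f.ne (smul_left_cancel g e)) ne
        (e2_of_sq (by rw [conj_mul, iu.1, mul_one, mul_inv_cancel])) (f.le m) fun e he => by
          have : g⁻¹ • e ∈ Fx Ω u := eq_inv_smul_iff.2 (by rw [← mul_smul, ← mul_smul]; exact he)
          simpa using h.Ln_smul g c d (fx.le this))).2.2.2.2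
      rw [cm, right_eq_mul, right_eq_mul, inv_eq_one, or_self] at k
      exact absurd (h.D_eq_one f.ne (by decide) k) (by decide)
    exact fun v => ⟨fun hv => e ▸ h.Ln_smul g c d hv, fun hv => by simpa using h.Ln_smul g⁻¹ _ _ (e.ge hv)⟩
  obtain ⟨P, hP⟩ := f.pg.exists_le_sylow
  have e : (P : Subgroup G) = R := by_contra fun ne => by
    obtain ⟨g, g1, g2, g3⟩ := CL.Inv.exists_mem_normalizer_of_lt_pGroup P.isPGroup' (lt_of_le_of_ne hP (Ne.symm ne))
    exact g3 ((f.mx _ (P.isPGroup'.to_inf_left (K := normalizer (R : Set G))) (inf_le_right.trans nS)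
      (le_inf hP le_normalizer)).le ⟨g1, g2⟩)
  refine ⟨⟨P, e⟩, by_contra fun k => ?_⟩
  push Not at k
  have ou : orderOf u = 2 := orderOf_eq_prime (by rw [sq, iu.1]) iu.2
  obtain ⟨N, nN, od, hN⟩ := Cfsg.Agent.S0215.result P u ou (hP uR) fun g hg => k g (e.le hg)
  rcases h.toHy.simple.eq_bot_or_eq_top_of_normal N nN with e | e
  · rcases h.toHy.simple.eq_bot_or_eq_top_of_normal (center G) inferInstance with z | z
    · refine iu.2 (mem_bot.1 (z.le (mem_center_iff.2 fun g => ?_)))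
      have := mem_bot.1 (e.le (hN g))
      rw [mul_inv_eq_one, mul_inv_eq_iff_eq_mul] at this
      exact this.symm
    · exact h.toHy.nab ⟨⟨fun a b => mem_center_iff.1 (z.ge (mem_top b)) a⟩⟩
  · rw [e, card_top] at od
    exact Nat.not_even_iff_odd.2 od (even_iff_two_dvd.2 (ou ▸ orderOf_dvd_natCard u))

end CL.Cq.Od3
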