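/- S3235, disconnected case, `p = 5`: the two types of lines do not coexist. -/
import Mathlib
import Cfsg.Agent.CHEV.Cq.Od
import Cfsg.Agent.CHEV.Cq.Od3
import Cfsg.Agent.CHEV.Cq.A5g
import Cfsg.Agent.TECH.SylIn
import Cfsg.Agent.CHEV.Cq.A5e
import Cfsg.Agent.S0111

set_option autoImplicit false
set_option linter.unusedSectionVars false

namespace CL.Cq

open Subgroup CL.PT CL.PT.L2x

variable {G Ω : Type*} [Group G] [MulAction G Ω] [Finite G] [Finite Ω] {S : Ω → Set G} {D : Ω → Ω → ℤ → G}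
  {a b c d : Ω} {x y : G}

namespace Hz

variable (h : Hz 5 S D) (o : Od S)
include h o

/-- `U = Fx v` has `q³ + 1` points (`cenW`), every pair `a', b'` in `U` has `D a' b' (-1) ≠ 1` (`cenW` for that pair, `v ∈ W a' b'` by `sc_pm`; sizes differ).  `I = {D a c (-1) ≠ 1}`: products have odd order (`z_odd`), closed under conjugation by `C a`.  `s = v z` acts on `I`, fixing only `z` (an `i ∈ I` commuting with `s` keeps `Fx s = ℓ`, so commutes with `z` (`Sb_norm`), `z_comm`).  For `i ∈ I`, `i' = s i s`: `j = (i i') ^ ((o + 1) / 2) i' ∈ I` (a conjugate of `i'` in the dihedral group of order `2 o`, `o` odd) has `j i j = i'` and `s j s = j`; so `j = z`, `z i z = s i s`, `v` commutes with `i`, keeps the line `Fx i`, fixes a second point of it (odd size off `a`), so fixes it pointwise.  Hence `U = B(a) = {a} ∪ {c | D a c (-1) ≠ 1}`.  All `B(c)` have the same size (`trans`), `U ⊆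 B(c)` for `c ∈ U`; so `r c c' ↔ c' ∈ B(c)` is an invariant equivalence relation with classes of even size; `blk` with `z`: `U = Ω`, `v = 1`. -/
theorem d_line (n : a ≠ b) (z1 : D a b (-1) ≠ 1) {v : G} (iv : Iv v) (hv : v ∈ W S a b) (big : Fx Ω v ≠ Ln S a b)
    (sm : Fx Ω (v * D a b (-1)) = Ln S a b) : False :=
  A5e.d_line h o n z1 iv hv big sm

/-- `v` centralises `K`, `K' ∋ z'`.  `v z ≠ 1` (`z` has no fixed point on `ℓ'`).  By `d_line` and `cenW`, `U₂ = Fx (v z)` has `q³ + 1 ≡ 6 (8)` points; `U₂ ∩ Fx v ⊆ Fx z = ℓ`.  `sg` for `X = C(v z)` on `U₂`: `m ∈ K` (perfect, `K ≤ X`) is even; `z'` has no fixed point on `U₂` (`Fx z' = ℓ' ⊆ Fx v`, `ℓ ∩ ℓ' = ∅`): `(q³ + 1) / 2` transpositions, odd.  `g = z' m⁻¹` is the scalar `±2`, fixes only `c`, `d`; `g² = z' m⁻¹ z' m⁻¹ = τ^{±1} z^ε` fixes only `c`, `d` (its fixed points are fixed by `g⁴ = z`, `τ_sc`), `g⁴ = z` fixes `ℓ`: `u = 0`,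 `v = (q - 1) / 4` odd, `w = (q³ - q) / 8` odd: even.  Contradiction. -/
theorem d_one {R : Subgroup G} (f : Fr S D c d x y R) (z1 : D c d (-1) ≠ 1) (n : a ≠ b) (z2 : D a b (-1) ≠ 1)
    (zR : D a b (-1) ∈ R) (ne : D a b (-1) ≠ D c d (-1)) {v : G} (iv : Iv v) (hv : v ∈ W S c d) (hv' : v ∈ W S a b) : False :=
  A5e.d_one h o f z1 n z2 zR ne iv hv hv'

omit h o in
theorem d_sb {s g : G} (c : Commute g s) : g ∈ Sb G (Fx Ω s) := fun e => by
  show s • e = e ↔ s • g • e = g • e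
  rw [← mul_smul, ← c.eq, mul_smul, smul_left_cancel_iff]

omit h o in
theorem d_b (a b : Ω) : b ∈ Ln S a b := Or.inr ⟨1, one_mem _, one_smul _ _⟩

omit o in
theorem d_ty {w : G} (hw : w ∈ W S c d) : Ty S w 1 := ⟨c, h.Sc_one.2 hw.1⟩

theorem d_grp {R : Subgroup G} (f : Fr S D c d x y R) (z1 : D c d (-1) ≠ 1) (n : a ≠ b)
    (z2 : D a b (-1) ≠ 1) (zR : D a b (-1) ∈ R) (ne : D a b (-1) ≠ D c d (-1)) :
    ∃ u, Sc S c u (-1) ∧ Loc R (R ⊓ W S c d) (D c d (-1)) u (x * y * x) (D a b (-1)) := by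
  have : Fact (Nat.Prime 2) := ⟨Nat.prime_two⟩
  obtain ⟨τs, ττ, -, -⟩ := h.τ_sc f.ne
  have zz := h.z_sq f.ne
  have ss := h.z_sq n
  have zT : D c d (-1) ∈ R ⊓ W S c d := ⟨ττ ▸ R.mul_mem f.τ f.τ, h.z_mem f.ne⟩
  have cz : ∀ r ∈ R, Commute (D c d (-1)) r := fun r hr => (h.Sb_norm o f.ne (f.le hr)).2.2.symm
  have fx := (h.fixz n z2).2
  have fp := h.fpf_of o f.ne n (fun e => ne (h.od_line o f.ne (e ▸ Set.mem_insert _ _) (e ▸ d_b a b) n).2.2.1)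
    (Od3.e2_of_sq ss) (f.le zR) fx.le
  obtain ⟨-, -, -, sτ, sm⟩ := h.fr_outer o f zR fp
  obtain ⟨mc, md, -⟩ := h.bd f.hx f.hy f.bd
  have mτ := h.D_swap f.ne 2 mc md
  have cτ : ∀ w ∈ R ⊓ W S c d, Commute (D c d 2) w := fun w hw =>
    (h.D_comm f.ne 2 (h.C_fix hw.2.1) hw.2.2).symm
  have cm : ∀ w ∈ R ⊓ W S c d, Commute (x * y * x) w := fun w hw => by
    have c1 : Commute x w := hw.2.1 x (subset_closure f.hx)
    have c2 : Commute y w := (h.W_symm f.ne ▸ hw.2 : w ∈ W S d c).1 y (subset_closure f.hy)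
    exact (c1.mul_left c2).mul_left c1
  have nf : ∀ w ∈ R ⊓ W S c d, w ≠ 1 → Commute w (D a b (-1)) → ∀ e ∈ Ln S a b, w • e ≠ e := by
    intro w hw w1 cw e he we
    obtain ⟨e', he', n', we'⟩ := Od3.two (CL.MSS.isPGroup_iff_forall_mem.1 f.pg w hw.1)
      (fx ▸ d_sb cw) (Od3.ev h o n) he we
    have h1 : w ∈ W S a b := (h.od_line o n he he' n'.symm).2.1 ▸
      ⟨h.Sc_one.1 (h.sc_pm (Or.inl rfl) (h.Sc_one.2 hw.2.1) we), we'⟩
    obtain ⟨⟨v, hv⟩, ov⟩ := exists_prime_orderOf_dvd_card' 2 (CL.MSS.dvd_card_of_isPGroup_le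
      (f.pg.to_le (zpowers_le.2 hw.1)) (zpowers_ne_bot.2 w1) le_rfl)
    rw [← orderOf_coe, orderOf_eq_prime_iff, sq] at ov
    exact h.d_one o f z1 n z2 zR ne ov (zpowers_le.2 hw.2 hv) (zpowers_le.2 h1 hv)
  have cen : ∀ w ∈ R ⊓ W S c d, Commute w (D a b (-1)) → w = 1 ∨ w = D c d (-1) := by
    intro w hw cw
    by_contra q
    rw [not_or] at q
    obtain ⟨e, he, q'⟩ := h.fpf2 o n (R := R ⊓ centralizer {D a b (-1)}) (f.pg.to_le inf_le_left)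
      (fun g hg => fx ▸ d_sb (mem_centralizer_singleton_iff.1 hg.2))
      ⟨hw.1, mem_centralizer_singleton_iff.2 cw⟩ ⟨zT.1, mem_centralizer_singleton_iff.2 (cz _ zR)⟩
      (nf w hw q.1 cw) (nf _ zT z1 (cz _ zR))
    exact nf _ (mul_mem hw zT) (fun e => q.2 (by
      rw [eq_inv_of_mul_eq_one_left e, inv_eq_of_mul_eq_one_right zz])) (cw.mul_left (cz _ zR)) e he q'
  have nT : ∀ {u}, Sc S c u (-1) → u ∉ R ⊓ W S c d := fun q r =>
    absurd (h.Sc_uniq q (h.Sc_one.2 r.2.1)) (by decide)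
  have sT : D a b (-1) ∉ R ⊓ W S c d := fun r => fp d (d_b c d) r.2.2
  have nn : ∀ w ∈ R ⊓ W S c d, D a b (-1) * w * (D a b (-1))⁻¹ ∈ R ⊓ W S c d := fun w hw =>
    ⟨R.mul_mem (R.mul_mem zR hw.1) (R.inv_mem zR), (h.Sb_norm o f.ne (f.le zR)).2.1 w hw.2⟩
  have mm := h.mu_sq f.ne f.hx f.hy f.bd
  rcases sm with sm | sm
  · refine ⟨_, τs, f.pg, inf_le_left, f.τ, f.m, zR, zT, ττ, zz, z1, mm, mτ, ss, sτ, sm, nT τs, sT, cτ,
      cm, cz, nn, fun r hr => ?_, cen⟩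
    obtain ⟨i, j, l, hi, hj, hl, w, h1, h2, e⟩ := h.fr_dec o f zR fp hr
    exact ⟨i, j, l, hi, hj, hl, w, ⟨h1, h2⟩, e⟩
  · have e1 : (D c d 2)⁻¹ = D c d 2 * D c d (-1) := by
      rw [inv_eq_iff_mul_eq_one, ← mul_assoc, ττ, zz]
    have τs' : Sc S c (D c d 2)⁻¹ (-1) := by
      simpa [e1] using h.Sc_mul τs (h.Sc_one.2 zT.2.1)
    refine ⟨_, τs', f.pg, inf_le_left, inv_mem f.τ, f.m, zR, zT, ?_, zz, z1, mm, ?_, ss, ?_, sm, nT τs', sT,
      fun w hw => (cτ w hw).inv_left, cm, cz, nn, fun r hr => ?_, cen⟩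
    · rw [← mul_inv_rev, ττ, inv_eq_of_mul_eq_one_right zz]
    · rw [← conj_inv, mτ]
    · rw [← conj_inv, sτ]
    · obtain ⟨i, j, l, hi, hj, hl, w, h1, h2, e⟩ := h.fr_dec o f zR fp hr
      refine ⟨i, j, l, hi, hj, hl, D c d (-1) ^ i * w, mul_mem (pow_mem zT i) ⟨h1, h2⟩, ?_⟩
      rw [e, ← mul_assoc _ _ w, mul_assoc _ _ (D c d (-1) ^ i),
        ← (((cz _ f.m).pow_left i).pow_right j).eq, ← mul_assoc, ← (cz _ f.τ).symm.inv_left.mul_pow,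
        ← ττ, inv_mul_cancel_left]

/-- The local picture.  `z = D c d (-1)`, `z' = D a b (-1)`, `T = R ⊓ W`.  `z'` has no fixed point on `ℓ` (`fpf_of`), inverts `τ`, `z' m z' = τ^{±1} m`, so `z' z = τ z' τ⁻¹`, `m z' m⁻¹ = z' τ^{±1}`.  `C_T(z') = ⟨z⟩`: it keeps `ℓ'`; an element fixing a point of `ℓ'` fixes two and is in `W a b`; `T ∩ W a b` is trivial by `d_one`; `fpf2`.  `w₀ ∈ T`, `w₀² = z` given.  `N₁ = {w ∈ T | z' w z' w⁻¹ ∈ ⟨z⟩}` has order 4 (`T ≠ ⟨z⟩`: normaliser condition; the map `w ↦ [z', w]` is a homomorphism onto `⟨z⟩` with kernel `⟨z⟩`): `N₁ = ⟨z⟩ ∪ w₁ ⟨z⟩`.  `fr_dec`: `C_R(z') = ⟨z, τ w₁, z'⟩` (`j = 1` is impossible as `τ ∉ W`).  `(τ w₁)² = z w₁²`, `w₁² ∈ C_T(z') = ⟨z⟩`.  All squares in `C_R(z')` are in `{1, z}`.  If `w₁² = 1` there is a square root of `z`.  Else `s = τ w₁`, `s z` are involutions of type `-1`; `z, z', z z'` have type `1`; `z' s`, `z' s z` are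 conjugate by `τ`.  If `T ≠ N₁`, some `w₂ ∈ T - N₁` normalises `⟨w₁, z'⟩`, `w₂ z' w₂⁻¹ = z' w₁^{±1}`, so `(m w₂) z' (m w₂)⁻¹ = z' τ^{±1} w₁^{±1} ∈ z' s ⟨z⟩` has type `1`. -/
theorem d_loc {R : Subgroup G} (f : Fr S D c d x y R) (z1 : D c d (-1) ≠ 1) (n : a ≠ b) (z2 : D a b (-1) ≠ 1)
    (zR : D a b (-1) ∈ R) (ne : D a b (-1) ≠ D c d (-1)) (big : ∃ w ∈ R, w ∈ W S c d ∧ w ≠ 1 ∧ w ≠ D c d (-1)) :
    (∀ r ∈ R, Commute r (D a b (-1)) → r * r = 1 ∨ r * r = D c d (-1)) ∧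
      ((∃ r ∈ R, Commute r (D a b (-1)) ∧ r * r = D c d (-1)) ∨
        ∃ s ∈ R, Commute s (D a b (-1)) ∧ Ty S s (-1) ∧ Ty S (s * D c d (-1)) (-1)) ∧
      ((∀ s ∈ R, ∀ s' ∈ R, Commute s (D a b (-1)) → Commute s' (D a b (-1)) → Ty S s (-1) → Ty S s' (-1) → s * s = 1 → s' * s' = 1 →
          s = s' ∨ s * s' = D c d (-1)) ∨
        ∀ w ∈ R, w ∈ W S c d → ∀ w' ∈ R, w' ∈ W S c d → w ∈ zpowers (D c d (-1)) ∨ w' ∈ zpowers (D c d (-1)) ∨
          w * w' ∈ zpowers (D c d (-1))) := by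
  obtain ⟨u, su, L⟩ := h.d_grp o f z1 n z2 zR ne
  obtain ⟨w₁, h1, e1⟩ := L.ex1 (by
    obtain ⟨w, a, b, q⟩ := big
    exact ⟨w, ⟨a, b⟩, q⟩)
  have ty : ∀ w ∈ R ⊓ W S c d, Ty S (u * w) (-1) := fun w hw =>
    ⟨c, by simpa using h.Sc_mul su (h.Sc_one.2 hw.2.1)⟩
  have ts := h.d_ty (h.z_mem n)
  refine ⟨fun r hr cr => ?_, Or.inr ⟨u * w₁, mul_mem L.uR h1.1, L.cs h1 e1, ty _ h1,
    mul_assoc u _ _ ▸ ty _ (mul_mem h1 L.zT)⟩, ?_⟩
  · obtain ⟨k, hk, rfl | rfl⟩ := L.cenR h1 e1 hr cr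
    · exact Or.inl (L.sqk h1 e1 hk).1
    · rw [(L.sqk h1 e1 hk).2]
      rcases L.sq1 h1 e1 with e | e <;> rw [e]
      · exact Or.inr (mul_one _)
      · exact Or.inl L.zz
  rw [or_iff_not_imp_right]
  intro q
  push Not at q
  obtain ⟨w, a1, a2, w', a3, a4, n1, n2, n3⟩ := q
  have key : ∀ r ∈ R, Commute r (D a b (-1)) → Ty S r (-1) → r * r = 1 →
      r = u * w₁ ∨ r = u * w₁ * D c d (-1) := fun r hr cr t rr => by
    obtain ⟨k, hk, rfl | rfl⟩ := L.cenR h1 e1 hr cr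
    · refine (h.Ty_not ?_ t).elim
      rcases hk with rfl | rfl | rfl | rfl
      · exact h.d_ty (c := c) (d := d) (one_mem _)
      · exact h.d_ty L.zT.2
      · exact ts
      · exact L.usu ▸ h.Ty_conj u ts
    · have sq : w₁ * w₁ = D c d (-1) := (L.sq1 h1 e1).resolve_left fun e => z1 (by
        rw [(L.sqk h1 e1 hk).2, e, mul_one] at rr
        exact rr)
      have cj := L.ex2 h1 e1 sq ⟨a1, a2⟩ ⟨a3, a4⟩ n1 n2 n3
      rcases hk with rfl | rfl | rfl | rfl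
      · exact Or.inl (mul_one _)
      · exact Or.inr rfl
      · obtain ⟨g, e⟩ := isConj_iff.1 cj
        exact (h.Ty_not (e ▸ h.Ty_conj g ts) t).elim
      · obtain ⟨g, e⟩ := isConj_iff.1 (cj.trans (L.cj2 h1 e1))
        exact (h.Ty_not (e ▸ h.Ty_conj g ts) t).elim
  intro s hs s' hs' c1 c2 t1 t2 q1 q2
  rcases key s hs c1 t1 q1 with rfl | rfl <;> rcases key s' hs' c2 t2 q2 with rfl | rfl
  · exact Or.inl rfl
  · exact Or.inr (by rw [← mul_assoc, q1, one_mul])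
  · exact Or.inr (by rw [← (L.cz _ hs').eq, mul_assoc, q2, mul_one])
  · exact Or.inl rfl

theorem d_zs {R : Subgroup G} (f : Fr S D c d x y R) (z1 : D c d (-1) ≠ 1) :
    (∃ P : Sylow 2 G, (P : Subgroup G) = R) ∧ ∃ a b, a ≠ b ∧ D a b (-1) ≠ 1 ∧ D a b (-1) ∈ R ∧
      D a b (-1) ≠ D c d (-1) := by
  obtain ⟨p, g, q1, q2⟩ := h.zstar o f ⟨h.z_sq f.ne, z1⟩ ((h.τ_sc f.ne).2.1 ▸ R.mul_mem f.τ f.τ)
    (fun r hr => (h.Sb_norm o f.ne (f.le hr)).2.2.symm) (h.fixz f.ne z1).2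
  refine ⟨p, g • c, g • d, fun e => f.ne (smul_left_cancel g e), ?_⟩
  rw [h.Deqv g _ f.ne]
  exact ⟨by simpa using z1, q1, q2⟩

theorem d_ns (n : a ≠ b) (z1 : D a b (-1) = 1) {R : Subgroup G} (f : Fr S D c d x y R)
    (z2 : D c d (-1) ≠ 1) : (∃ w ∈ R, w ∈ W S c d ∧ w ≠ 1 ∧ w ≠ D c d (-1)) ∧
      ¬ ∀ w ∈ R, w ∈ W S c d → ∀ w' ∈ R, w' ∈ W S c d → w ∈ zpowers (D c d (-1)) ∨
        w' ∈ zpowers (D c d (-1)) ∨ w * w' ∈ zpowers (D c d (-1)) := by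
  have : Fact (Nat.Prime 2) := ⟨Nat.prime_two⟩
  obtain ⟨⟨P, rfl⟩, a', b', n', q1, q2, q3⟩ := h.d_zs o f z2
  obtain ⟨u, su, L⟩ := h.d_grp o f z2 n' q1 q2 q3
  obtain ⟨x₀, hx⟩ := h.ex a
  obtain ⟨y₀, hy⟩ := h.ex b
  obtain ⟨y₁, hy', -, bd, -⟩ := h.partner n hx hy
  obtain ⟨it, -, -, st, ev, -⟩ := h.v4' n z1 (i := 2) (by decide) hx hy' bd
  obtain ⟨k, rfl⟩ := h.trans a c
  have : MulAction.IsPretransitive G Ω := ⟨h.trans⟩
  set St := MulAction.stabilizer G (k • a) with hSt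
  have sy : CL.MSS.SylIn 2 ((P : Subgroup G) ⊓ St) St := by
    refine CL.MSS.sylIn_of_not_dvd_relIndex (f.pg.to_le inf_le_left) inf_le_right fun ⟨i, hi⟩ => ?_
    obtain ⟨mc, md, -⟩ := h.bd f.hx f.hy f.bd
    have e1 : St.relIndex P = 2 := relIndex_eq_two_iff_exists_notMem_and.2
      ⟨_, f.m, fun e => f.ne (e.symm.trans mc), fun r hr => (f.sw r hr).symm.imp
        (fun e => by rw [hSt, MulAction.mem_stabilizer_iff, mul_smul, mc, e.2]) fun e => e.1⟩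
    have e2 := relIndex_mul_index (inf_le_right : (P : Subgroup G) ⊓ St ≤ St)
    have e3 := relIndex_mul_index (inf_le_left : (P : Subgroup G) ⊓ St ≤ P)
    obtain ⟨j, hj⟩ := ev
    rw [inf_relIndex_left, e1, ← e2, hi, hSt, MulAction.index_stabilizer_of_transitive, hj] at e3
    exact P.not_dvd_index ⟨i * j, by linarith⟩
  have s1 := h.Sc_conj k st
  obtain ⟨g, hg, le⟩ := sy.exists_conj_le (R := zpowers (k * D a b 2 * k⁻¹))
    (Od3.pg (Od3.e2_of_sq (by rw [conj_mul, it.1]; simp)))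
    (zpowers_le.2 (h.Sc_fix (by decide) s1))
  have s2 := h.Sc_conj g s1
  rw [show g • k • a = k • a from hg] at s2
  have tR := (le (CL.MSS.conj_mem_cj (mem_zpowers _))).1
  have t2 : Iv (g * (k * D a b 2 * k⁻¹) * g⁻¹) :=
    ⟨by rw [conj_mul, conj_mul, it.1]; simp, by simpa using it.2⟩
  generalize g * (k * D a b 2 * k⁻¹) * g⁻¹ = t at s2 tR t2
  have fd : ∀ r ∈ (P : Subgroup G), Sc S (k • a) r (-1) → r • d = d := fun r hr s =>
    ((f.sw r hr).resolve_right fun e => f.ne ((h.Sc_fix (by decide) s).symm.trans e.1)).2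
  have h0 : u⁻¹ * t ∈ (P : Subgroup G) ⊓ W S (k • a) d := ⟨(P : Subgroup G).mul_mem ((P : Subgroup G).inv_mem L.uR) tR,
    h.Sc_div su s2, show (u⁻¹ * t) • d = d by
    rw [mul_smul, fd t tR s2, inv_smul_eq_iff, fd u L.uR su]⟩
  have sq : u⁻¹ * t * (u⁻¹ * t) = D (k • a) d (-1) := by
    have c : Commute u⁻¹ t := by simpa using ((Commute.refl u).mul_right (L.cu _ h0)).inv_left
    rw [c.symm.mul_mul_mul_comm, t2.1, mul_one, ← mul_inv_rev, L.uu, L.zi]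
  refine ⟨⟨_, h0.1, h0.2, fun e => z2 (by rw [← sq, e, mul_one]),
    fun e => z2 (by rw [← sq, e, L.zz])⟩, fun sm => ?_⟩
  obtain ⟨Q, QR, i2, nQ, iv⟩ := L.small h0 sq fun w hw w' hw' => sm w hw.1 hw.2 w' hw'.1 hw'.2
  rw [mul_inv_cancel_left] at nQ
  rcases Cfsg.Agent.S0111.result P Q QR i2 t (orderOf_eq_prime (by rw [pow_two]; exact t2.1) t2.2) tR nQ with
    ⟨M, nM, iM, -⟩ | ⟨g, hg⟩
  · have := h.simple
    rcases nM.eq_bot_or_eq_top with rfl | rfl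
    · rw [index_bot] at iM
      exact z2 (by rw [← L.uu, ← pow_two, ← iM, pow_card_eq_one'])
    · simp at iM
  · have t3 : Ty S (g * t * g⁻¹) (-1) := h.Ty_conj g ⟨_, s2⟩
    rcases iv _ hg (by rw [conj_mul, t2.1]; simp) with e | e | e
    · exact t2.2 (by simpa using e)
    · exact h.Ty_not (e ▸ h.d_ty L.zT.2) t3
    · obtain ⟨g', e⟩ := isConj_iff.1 e
      exact h.Ty_not (e ▸ h.Ty_conj g' (h.d_ty (h.z_mem n'))) t3

/-- `n` is even (`v4'`).  `fr`, `zstar` for `z ∈ Z(R)` (`Sb_norm`, `τ² = z`): `R` is Sylow in `G`, `z' = g z g⁻¹ = D (g c) (g d) (-1) ∈ R`.  The involution `t = D a b 2` of type `-1` is conjugate to `t₁ ∈ R`; `t₁` has a fixed point; claim: some conjugate fixes `c` and `d`: conjugate so that `t₁` fixes `c` (`trans`); a Sylow 2-subgroup of `G_c` has order `≤ |R| / 2` (`n` even) and `R ∩ G_c` has index 2, so it is Sylow in `G_c`.  So `t₁ = τ w₀`, `w₀ ∈ T`, `w₀²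 = z`.  `|T|` is the same for the conjugate line (`|R| = 8 |T|`, or conjugate the frames: Sylow in `Sb`).
If `|T| = 4` (last alternative of `d_loc`): `T = ⟨w₀⟩`, `Q = ⟨τ, m, z'⟩ = {τ ^ i m ^ j z' ^ l}` has order 16 and index 2 in `R`, its involutions are `z` and `τ ^ i z'`, all conjugate to `z` (type `1`); `t₁ ∉ Q`; Thompson transfer S0111.
Else take `R' ≥ C_R(z')` (`fr` for the line of `z'`), which again has `|T'| > 4`, apply `d_loc` to both: a root of `z` in `C_{R'}(z)` has square in `{1, z'}`; or `s`, `s z` of type `-1` have product `z ∈ {1, z'}` (they are involutions, or their square is `z`: previous case). -/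
theorem a5d (n : a ≠ b) (z1 : D a b (-1) = 1) (n' : c ≠ d) (z2 : D c d (-1) ≠ 1) : False := by
  obtain ⟨c₁, hc, d₁, hd, x₁, y₁, R, f, -⟩ := h.fr o n' (R₀ := ⊥) IsPGroup.of_bot bot_le
  rw [← (h.od_line o n' hc hd f.ne).2.2.1] at z2
  obtain ⟨-, a', b', m, q1, q2, q3⟩ := h.d_zs o f z2
  obtain ⟨A1, A2, -⟩ := h.d_loc o f z2 m q1 q2 q3 (h.d_ns o n z1 f z2).1
  obtain ⟨c₂, hc', d₂, hd', x₂, y₂, R', f', le⟩ := h.fr o m (R₀ := R ⊓ centralizer {D a' b' (-1)})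
    (f.pg.to_le inf_le_left)
    (fun g hg => (h.fixz m q1).2 ▸ d_sb (mem_centralizer_singleton_iff.1 hg.2))
  have e := (h.od_line o m hc' hd' f'.ne).2.2.1
  have cz : ∀ r ∈ R, Commute r (D c₁ d₁ (-1)) := fun r hr => (h.Sb_norm o f.ne (f.le hr)).2.2
  have zR : D c₁ d₁ (-1) ∈ R := (h.τ_sc f.ne).2.1 ▸ R.mul_mem f.τ f.τ
  have up : ∀ r ∈ R, Commute r (D a' b' (-1)) → r ∈ R' := fun r hr c =>
    le ⟨hr, mem_centralizer_singleton_iff.2 c⟩
  have zc := (cz _ q2).symm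
  obtain ⟨N1, N2⟩ := h.d_ns o n z1 f' (e ▸ q1)
  obtain ⟨B1, -, B3⟩ := h.d_loc o f' (e ▸ q1) f.ne z2 (up _ zR zc) (e ▸ q3.symm) N1
  replace B3 := B3.resolve_right N2
  rw [e] at B1 B3
  have root : ∀ r ∈ R, Commute r (D a' b' (-1)) → r * r ≠ D c₁ d₁ (-1) := fun r hr c q =>
    (B1 r (up r hr c) (cz r hr)).elim (fun k => z2 (q.symm.trans k)) fun k => q3 (k.symm.trans q)
  rcases A2 with ⟨r, hr, c, q⟩ | ⟨s, hs, c, t1, t2⟩
  · exact root r hr c q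
  · have s2 := (A1 s hs c).resolve_right (root s hs c)
    have h1 := mul_mem hs zR
    have c1 := c.mul_left zc
    rcases B3 s (up s hs c) _ (up _ h1 c1) (cz s hs) (cz _ h1) t1 t2 s2
      ((A1 _ h1 c1).resolve_right (root _ h1 c1)) with k | k
    · exact z2 (left_eq_mul.1 k)
    · rw [← mul_assoc, s2, one_mul] at k
      exact q3 k.symm

end Hz

end CL.Cq
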